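import Cfsg.Agent.H363.Cyc.ExpTab
import Cfsg.Agent.ChevalleyStructure.RootVec

/-!
# Exponents of the unipotent elements: `E₇` and `E₈` (helper363, TEAM TWOCYC)
-/

set_option autoImplicit false

namespace Cfsg.Agent.H363.Cyc.ExpU

open Cfsg.Lie Cfsg.Agent.ChevalleyStructure Cfsg.Agent.ChevalleyStructure.RootVec
  Cfsg.Agent.ChevalleyStructure.RootVecTab

universe u

/-- the height of a root -/
def htR (D : ChevalleyDatum) (r : ℕ) : ℤ := ((List.range D.rank).map fun a => rt D r a).sum

theorem htR_comb {D : ChevalleyDatum} {u r s : ℕ} {i : ℤ} (h : ∀ a, rt D u a = i * rt D r a + rt D s a) :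
    htR D u = i * htR D r + htR D s := by
  unfold htR
  rw [← List.sum_map_mul_left, ← List.sum_map_add]
  congr 1
  exact List.map_congr_left fun a _ => h a

theorem htR_neg {D : ChevalleyDatum} (h : Checked D) {r : ℕ} (hr : r < D.nroots) : htR D (D.neg r) = - htR D r := by
  unfold htR
  have e : ((List.range D.rank).map fun a => rt D (D.neg r) a) = (List.range D.rank).map fun a => (-1) * rt D r a :=
    List.map_congr_left fun a _ => by rw [rt_neg h hr]; ring
  rw [e, List.sum_map_mul_left]
  ring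

theorem gradeCheck_htR {D : ChevalleyDatum} (h : Checked D) {r : ℕ} (hr : r < D.nroots) :
    Grading.gradeCheck D (htR D) r = true := by
  unfold Grading.gradeCheck
  rw [Bool.and_eq_true, decide_eq_true_eq, List.all_eq_true]
  refine ⟨htR_neg h hr, fun e he => ?_⟩
  rw [List.all_eq_true]
  rintro ⟨q, i⟩ hq
  rw [List.mem_zipIdx_iff_getElem?] at hq
  rw [decide_eq_true_eq]
  obtain ⟨_, h2⟩ := row_entry h he hq
  refine htR_comb fun a => ?_
  rw [h2 a]
  push_cast
  ring

theorem hlE7 : HL chevE7 (htR chevE7) 18 where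
  gr := fun r hr => gradeCheck_htR checked_E7 hr
  pos := by decide +kernel
  lt := by decide +kernel
  cop := by decide +kernel

theorem hlE8 : HL chevE8 (htR chevE8) 30 where
  gr := fun r hr => gradeCheck_htR checked_E8 hr
  pos := by decide +kernel
  lt := by decide +kernel
  cop := by decide +kernel

section

variable {F : Type u} [Field F] [Fintype F] {p : ℕ} [Fact p.Prime] [CharP F p] {n k : ℕ}

theorem pow_E7 {g : ↥(chevE7.group F)} (hg : g ^ p ^ n = 1) (hk : 18 ≤ p ^ k) : g ^ p ^ k = 1 :=
  pow_eq_one (by simp) hlE7 hg (by exact_mod_cast hk)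

theorem pow_E8 {g : ↥(chevE8.group F)} (hg : g ^ p ^ n = 1) (hk : 30 ≤ p ^ k) : g ^ p ^ k = 1 :=
  pow_eq_one (by simp) hlE8 hg (by exact_mod_cast hk)

end

end Cfsg.Agent.H363.Cyc.ExpU
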